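import Cfsg.Agent.BMod.Shape
import Cfsg.Agent.BMod.Ker

/-!
Perfect isometries from matching generalized decomposition numbers: `div_card_mem_O`,
`Sys.perfect`, `Sys.exists_perfect`.
-/

set_option linter.unusedSectionVars false

namespace Cfsg.Agent.BMod

open MonoidAlgebra Transfer Block Cfsg.Agent.Char CharDeep Module
open scoped ComplexConjugate

variable {p : ℕ} [hp : Fact p.Prime] {M : Ideal AlgInt} [PMod p M] {G : Type*} [Group G] [Fintype G]

theorem div_card_mem_O {θ : G → ℂ} (hθ : IsClassFunction G θ)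
    (hO : ∀ χ : IrrCharacter G, classInner θ χ ∈ O M) (h0 : ∀ g, p ∣ orderOf g → θ g = 0) (x : G) :
    θ x / Nat.card (Subgroup.centralizer ({x} : Set G)) ∈ O M := by
  by_cases hx : p ∣ orderOf x
  · simp [h0 x hx]
  obtain ⟨S⟩ : Nonempty (Sylow p (Subgroup.centralizer ({x} : Set G))) := inferInstance
  obtain ⟨Q, hQ⟩ : ∃ Q, IsSylowIn p Q (Subgroup.centralizer ({x} : Set G)) :=
    ⟨_, isSylowIn_iff_exists_sylow.2 ⟨S, rfl⟩⟩
  have := Fintype.ofFinite Q
  have h1 : θ x = ∑ u : Q, θ (x * u) := by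
    rw [Finset.sum_eq_single 1 (fun u _ hu => h0 _ (dvd_orderOf_mul_of_mem hQ.isPGroup hx hQ.le
      u.2 fun h => hu (Subtype.ext h))) (by simp), OneMemClass.coe_one, mul_one]
  have h2 : (Nat.card Q : ℂ)⁻¹ * θ x ∈ O M := by
    rw [h1, Finset.sum_congr rfl fun (u : Q) _ => hθ.apply_eq_sum_irr (x * u), Finset.sum_comm,
      Finset.mul_sum]
    refine sum_mem fun χ _ => ?_
    rw [← Finset.mul_sum, mul_left_comm]
    exact mul_mem (hO χ) (mem_O_of_isIntegral (avg_isIntegral χ.2.isCharacter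
      (centralizer_le_normalizer' Q (le_centralizer_singleton_iff.1 hQ.le))))
  convert mul_mem h2 (mem_O_of_red_ne_zero (red_card_div_ne_zero hQ)) using 1
  have : (Nat.card Q : ℂ) ≠ 0 := natCard_cast_ne_zero
  field_simp

theorem IsSub.card_centralizer {H : Subgroup G} {z c : H} (h : IsSub p H z) (hc : ¬ p ∣ orderOf c) :
    Nat.card (Subgroup.centralizer ({(z : G) * c} : Set G)) =
      Nat.card (Subgroup.centralizer ({c} : Set H)) := by
  rw [← Subgroup.card_map_of_injective H.subtype_injective]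
  congr 2
  ext g
  refine ⟨fun hg => ?_, ?_⟩
  · have h1 : g ∈ H := h.cent ▸ IsPPart.centralizer_le (h.isPPart hc) hg
    refine ⟨⟨g, h1⟩, Subgroup.mem_centralizer_singleton_iff.2 (Subtype.ext ?_), rfl⟩
    have h2 := Subgroup.mem_centralizer_singleton_iff.1 hg
    rwa [← mul_assoc, h.mem_iff.1 h1, mul_assoc, mul_assoc, mul_right_inj] at h2
  · rintro ⟨g, hg, rfl⟩
    have h2 : (g : G) * c = c * g := congrArg Subtype.val (Subgroup.mem_centralizer_singleton_iff.1 hg)
    rw [Subgroup.mem_centralizer_singleton_iff, Subgroup.coe_subtype, ← mul_assoc, h.mem_iff.1 g.2,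
      mul_assoc, h2, mul_assoc]

theorem IsSub.pow_mul_pj_div_mem {H : Subgroup G} {z : H} (h : IsSub p H z)
    {b : Set (IrrCharacter H)} (hb : IsPBlock M b) {θ : G → ℂ} (hθ : IsGeneralizedCharacter G θ)
    (g : G) : p ^ blockDefect p b * pj p z b θ g / Nat.card (Subgroup.centralizer ({g} : Set G)) ∈
      O M := by
  classical
  have := Fintype.ofFinite H
  obtain ⟨x, hx⟩ := exists_isPPart p g
  by_cases hxz : IsConj x z
  swap
  · simp [h.pj_eq_zero b θ hx hxz]
  obtain ⟨c, hc, h1⟩ := h.exists_conj hx hxz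
  have h2 := isClassFunction_blockPart b (sh z θ)
  have h3 := isClassFunction_rho (p := p) h2
  rw [IsClassFunction.apply_eq_of_isConj (isClassFunction_pj b θ) h1, card_centralizer_of_isConj h1,
    h.card_centralizer hc, pj, h.EE_apply h2 hc, ← rho_apply_of_not_dvd (blockPart b _) hc]
  refine div_card_mem_O (IsClassFunction.smul h3 _) (fun ψ => ?_)
    (fun g hg => by simp [rho_apply_of_dvd _ hg]) c
  rw [classInner_smul_left]
  by_cases hψ : ψ ∈ b
  · obtain ⟨w, hw, h4, -⟩ := exists_pow_mul_inner (M := M) h3 (fun k => by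
      rw [rho_apply]
      split_ifs with hk
      exacts [zero_mem _, by rw [← h.EE_apply h2 hk]; exact h.pj_mem_O (M := M) hθ _]) hψ
    exact h4 ▸ mul_mem (pow_mem (natCast_mem _ _) _) hw
  · rw [← blockPart_rho (IsPBlock.isBlockUnion hb), classInner_blockPart, if_neg hψ, mul_zero]
    exact zero_mem _

variable {A : Type*} [Group A] [Fintype A] {H : Type*} [Group H] [Fintype H]
variable {B : Set (IrrCharacter G)} {P : Subgroup G} {e : (F M)[G]} {ι : A ≃* P}
  {E : Subgroup (MulAut A)} {D : IrrCharacter G → A → ℂ} {Θ : A → G → ℂ}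
  {B' : Set (IrrCharacter H)} {P' : Subgroup H} {e' : (F M)[H]} {ι' : A ≃* P'}
  {D' : IrrCharacter H → A → ℂ} {Θ' : A → H → ℂ}

theorem Sys.div_mem_O (h : Sys p B P e ι E D Θ) {u : A} (hu : u ≠ 1) (g : G) :
    Nat.card A * Θ u g / Nat.card (Subgroup.centralizer ({g} : Set G)) ∈ O M := by
  obtain ⟨χ, -, h0, h1⟩ := h.exists_eq hu
  have := mul_mem h0 ((isSub_zu h.max.pair (ι u).2).pow_mul_pj_div_mem
    (isPBlock_bu h.max.pair (ι u).2) (irrG χ) g)
  rw [← Nat.cast_pow, h.pow_defect, ← BMod.pu_eq] at this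
  convert this using 1
  rw [h1, Pi.smul_apply, smul_eq_mul]; ring

section ker
variable {κ : Type*} [Fintype κ] {a : κ → IrrCharacter G} {b : κ → IrrCharacter H} {ε : κ → ℤ}

theorem Sys.kernel_eq [DecidableEq A] (h : Sys p B P e ι E D Θ) (h' : Sys p B' P' e' ι' E D' Θ')
    (ha : Function.Injective a) (haB : B ⊆ Set.range a) (hb : ∀ k, b k ∈ B')
    (hD : ∀ k, ∀ u ≠ 1, ε k * D' (b k) u = conj (D (a k) u)) (x : G) {y : H} (hy : p ∣ orderOf y) :
    ∑ k, ε k * (a k).1 x * (b k).1 y =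
      (Nat.card E : ℂ)⁻¹ * ∑ u ∈ Finset.univ.erase 1, Nat.card A * Θ u x * Θ' u y := by
  classical
  simp only [h'.apply_eq (hb _) hy, Finset.mul_sum]
  rw [Finset.sum_comm]
  refine Finset.sum_congr rfl fun u hu => ?_
  have hu := Finset.ne_of_mem_erase hu
  rw [← h.sum_conj hu, ← Finset.sum_subset (Finset.subset_univ (Finset.univ.image a))
    fun χ _ hχ => by rw [h.eq_zero (fun h1 => hχ (by simpa using haB h1)) hu, map_zero, zero_mul],
    Finset.sum_image fun _ _ _ _ h => ha h, Finset.sum_mul, Finset.mul_sum]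
  exact Finset.sum_congr rfl fun k _ => by rw [← hD k u hu]; ring

theorem Sys.kernel_zero (h : Sys p B P e ι E D Θ) (h' : Sys p B' P' e' ι' E D' Θ')
    (ha : Function.Injective a) (haB : B ⊆ Set.range a) (hb : ∀ k, b k ∈ B')
    (hD : ∀ k, ∀ u ≠ 1, ε k * D' (b k) u = conj (D (a k) u)) {x : G} (hx : ¬ p ∣ orderOf x) {y : H}
    (hy : p ∣ orderOf y) : ∑ k, ε k * (a k).1 x * (b k).1 y = 0 := by
  classical
  rw [h.kernel_eq h' ha haB hb hD x hy, Finset.sum_eq_zero fun u hu => by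
    rw [h.apply_reg (Finset.ne_of_mem_erase hu) hx, mul_zero, zero_mul], mul_zero]

theorem Sys.kernel_mem (h : Sys p B P e ι E D Θ) (h' : Sys p B' P' e' ι' E D' Θ')
    (ha : Function.Injective a) (haB : B ⊆ Set.range a) (hb : ∀ k, b k ∈ B')
    (hD : ∀ k, ∀ u ≠ 1, ε k * D' (b k) u = conj (D (a k) u)) (x : G) (y : H)
    (h0 : ¬ p ∣ orderOf y → ∀ x, p ∣ orderOf x → ∑ k, ε k * (a k).1 x * (b k).1 y = 0) :
    (∑ k, ε k * (a k).1 x * (b k).1 y) / Nat.card (Subgroup.centralizer ({x} : Set G)) ∈ O M := by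
  classical
  by_cases hy : p ∣ orderOf y
  · rw [h.kernel_eq h' ha haB hb hD x hy, mul_div_assoc, Finset.sum_div]
    refine mul_mem (inv_natCast_mem_O h.cop) (sum_mem fun u hu => ?_)
    rw [mul_div_right_comm]
    exact mul_mem (h.div_mem_O (Finset.ne_of_mem_erase hu) x) (h'.mem_O (Finset.ne_of_mem_erase hu) y)
  have h1 : (fun x => ∑ k, ε k * (a k).1 x * (b k).1 y) = ∑ k, (ε k * (b k).1 y) • (a k).1 := by
    ext x; simp [mul_right_comm]
  refine div_card_mem_O (θ := fun x => ∑ k, ε k * (a k).1 x * (b k).1 y)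
    (fun g k => by simp only [irrC _ g k]) (fun χ => ?_) (h0 hy) x
  rw [h1, classInner_sum_left]
  refine sum_mem fun k _ => ?_
  rw [classInner_smul_left, classInner_irr]
  exact mul_mem (mul_mem (intCast_mem _ _) (irr_mem_O _ _)) (by split_ifs <;> simp)

end ker

theorem Sys.perfect (h : Sys p B P e ι E D Θ) (h' : Sys p B' P' e' ι' E D' Θ')
    {I : IrrCharacter H → IrrCharacter G} {ε : IrrCharacter H → ℤ} (hI : Set.BijOn I B' B)
    (hε : ∀ η ∈ B', ε η = 1 ∨ ε η = -1) (hD : ∀ η ∈ B', ∀ u ≠ 1, D (I η) u = ε η * conj (D' η u)) :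
    IsPerfectIsometry p M B' B I ε := by
  have := Fintype.ofFinite B'
  have h1 : Function.Injective fun k : B' => I k := hI.injOn.injective
  have h2 : B ⊆ Set.range fun k : B' => I k := fun χ hχ =>
    let ⟨η, hη, h⟩ := hI.surjOn hχ; ⟨⟨η, hη⟩, h⟩
  have h3 : ∀ k : B', ∀ u ≠ 1, ε k * D' k u = conj (D (I k) u) := fun k u hu => by
    simp [hD k k.2 u hu]
  have h4 : ∀ k : B', ∀ u ≠ 1, ε k * D (I k) u = conj (D' k u) := fun k u hu => by
    rcases hε k k.2 with h | h <;> simp [hD k k.2 u hu, h]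
  have h5 := fun {y} hy {x} hx => h'.kernel_zero h (ε := fun k : B' => ε k) (x := y) (y := x)
    Subtype.val_injective (by simp) (fun k => hI.mapsTo k.2) h4 hy hx
  have h6 := fun {x} hx {y} hy => h.kernel_zero h' (ε := fun k : B' => ε k) (x := x) (y := y)
    h1 h2 (fun k => k.2) h3 hx hy
  refine ⟨hI, hε, fun x y => ?_⟩
  rw [signedBijectionKernel, ← finsum_set_coe_eq_finsum_mem, finsum_eq_sum_of_fintype]
  refine ⟨h.kernel_mem h' h1 h2 (fun k => k.2) h3 x y fun hy x hx => ?_, ?_, ?_⟩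
  · simpa only [mul_right_comm] using h5 hy hx
  · simpa only [mul_right_comm, ← Block.mem_O] using h'.kernel_mem h (ε := fun k : B' => ε k)
      Subtype.val_injective (by simp) (fun k => hI.mapsTo k.2) h4 y x fun hx y hy => by
        simpa only [mul_right_comm] using h6 hx hy
  · by_cases hx : p ∣ orderOf x <;> by_cases hy : p ∣ orderOf y
    · exact Or.inl (iff_of_false (not_not.2 hx) (not_not.2 hy))
    · exact Or.inr (by simpa only [mul_right_comm] using h5 hy hx)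
    · exact Or.inr (h6 hx hy)
    · exact Or.inl (iff_of_true hx hy)

theorem dual_inv {ψ φ : A →* ℂˣ} : dualSetoid E ψ⁻¹ φ⁻¹ ↔ dualSetoid E ψ φ :=
  exists_congr fun _ => and_congr_right fun _ => forall_congr' fun _ => inv_inj

theorem hom_inv_ne_one {ψ : A →* ℂˣ} (h : ψ ≠ 1) : ψ⁻¹ ≠ 1 := fun h' =>
  h (MonoidHom.ext fun u => inv_eq_one.1 (DFunLike.congr_fun h' u))

theorem hom_inv_inv (ψ : A →* ℂˣ) : ψ⁻¹⁻¹ = ψ := MonoidHom.ext fun _ => inv_inv _

theorem Sys.exists_perfect (h : Sys p B P e ι E D Θ) (h' : Sys p B' P' e' ι' E D' Θ')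
    {X Y ζ δ δ₀} (hs : Shape B E D X Y ζ δ δ₀) {X' Y' ζ' δ' δ₀'}
    (hs' : Shape B' E D' X' Y' ζ' δ' δ₀') :
    ∃ I ε, IsPerfectIsometry p M B' B I ε ∧ ∀ η ∈ Y', ε η = δ₀ * δ₀' := by
  classical
  let σ := Finset.equivOfCardEq (hs'.cardX.trans hs.cardX.symm)
  choose! r hr hr' using fun η => (hs'.memY η).1
  have h0 : ∀ η ∈ B', η ∉ X' → η ∈ Y' := fun η hη => ((hs'.mem η).1 hη).resolve_left
  have h1 : ∀ η ∈ Y', ζ (r η)⁻¹ ∈ Y := fun η hη => (hs.memY _).2 ⟨_, hom_inv_ne_one (hr η hη), rfl⟩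
  let I : IrrCharacter H → IrrCharacter G := fun η => if h : η ∈ X' then σ ⟨η, h⟩ else ζ (r η)⁻¹
  refine ⟨I, fun η => if η ∈ X' then δ (I η) * δ' η else δ₀ * δ₀', h.perfect h'
    ⟨fun η hη => (hs.mem _).2 ?_, fun η hη η' hη' he => ?_, fun χ hχ => ?_⟩ (fun η hη => ?_)
    fun η hη u hu => ?_, fun η hη => if_neg (Finset.disjoint_right.1 hs'.disj hη)⟩
  · simp only [I]
    split_ifs with h2
    exacts [Or.inl (σ _).2, Or.inr (h1 η (h0 η hη h2))]
  · simp only [I] at he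
    split_ifs at he with h2 h3 h3
    · exact congrArg Subtype.val (σ.injective (Subtype.ext he))
    · exact (Finset.disjoint_left.1 hs.disj (σ _).2 (he ▸ h1 η' (h0 η' hη' h3))).elim
    · exact (Finset.disjoint_left.1 hs.disj (σ _).2 (he ▸ h1 η (h0 η hη h2))).elim
    · have h4 := hr η (h0 η hη h2)
      have h5 := hr η' (h0 η' hη' h3)
      rw [hs.eq_iff _ (hom_inv_ne_one h4) _ (hom_inv_ne_one h5), dual_inv, ← hs'.eq_iff _ h4 _ h5,
        hr' η (h0 η hη h2), hr' η' (h0 η' hη' h3)] at he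
      exact he
  · rcases (hs.mem χ).1 hχ with h2 | h2
    · exact ⟨σ.symm ⟨χ, h2⟩, (hs'.mem _).2 (Or.inl (σ.symm _).2), by simp [I]⟩
    · obtain ⟨ψ, hψ, rfl⟩ := (hs.memY χ).1 h2
      have h3 := (hs'.memY _).2 ⟨ψ⁻¹, hom_inv_ne_one hψ, rfl⟩
      refine ⟨ζ' ψ⁻¹, (hs'.mem _).2 (Or.inr h3), ?_⟩
      simp only [I, dif_neg (Finset.disjoint_right.1 hs'.disj h3)]
      rw [hs.eq_iff _ (hom_inv_ne_one (hr _ h3)) _ hψ, ← dual_inv, hom_inv_inv,
        ← hs'.eq_iff _ (hr _ h3) _ (hom_inv_ne_one hψ), hr' _ h3]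
  · split_ifs with h2
    · have := hs.sign (I η) (by simp only [I, dif_pos h2]; exact (σ _).2)
      rcases hs'.sign η h2 with h | h <;> simp only [h] <;> omega
    · have := hs.sign₀
      rcases hs'.sign₀ with h | h <;> simp only [h] <;> omega
  · split_ifs with h2
    · rw [hs.valX (I η) (by simp only [I, dif_pos h2]; exact (σ _).2) u hu, hs'.valX η h2 u hu]
      rcases hs'.sign η h2 with h | h <;> simp [h]
    · have h3 := h0 η hη h2
      simp only [I, dif_neg h2]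
      conv_rhs => rw [← hr' η h3]
      rw [hs.valY _ (hom_inv_ne_one (hr η h3)) u hu, hs'.valY _ (hr η h3) u hu, map_mul, map_sum,
        Finset.sum_equiv (Equiv.inv _) (t := Finset.univ.filter (dualSetoid E (r η)))
          (g := fun l => conj (l u : ℂ)) (fun l => by simp [← dual_inv (φ := l), hom_inv_inv])
          fun l _ => by simp [conj_hom_apply]]
      rcases hs'.sign₀ with h | h <;> simp [h]

local notation "𝐂" Q:max => Subgroup.centralizer ((Q : Subgroup G) : Set G)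

theorem exists_isMax_res {K : Subgroup G} {c : Set (IrrCharacter K)} (hc : IsInducedBlock M K c B)
    (hP : IsDefectGroup p M B P) (hD : IsDefectGroup p M c (P.subgroupOf K)) (hK : P ≤ K)
    (hC : 𝐂 P ≤ K) : ∃ e, IsMax p (eB M B) P e ∧ IsMax p (eB M c) (P.subgroupOf K) (resA K e) := by
  have h1 := (isDefectGroup_subgroupOf_iff hc.1 hK).1 hD
  obtain ⟨e, he, h2⟩ := exists_isPair_mul_br h1.pgroup (isPrim_eS hc.1).idem
    (fix_anti hK (eS_mem_Zc _ _).1) (fix_anti hC (eS_mem_Zc _ _).1) h1.br_ne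
  exact ⟨e, ⟨isPrim_eB hc.2.1, (isDefectGroup_iff_isDef hc.2.1).1 hP, he,
    mul_br_eB_of_induced hc hK hC he h2⟩, isMax_res he hC (isPrim_eB hc.1) h1 h2⟩

theorem aE_res {K : Subgroup G} (he : IsPair p P e) (hK : P ≤ K) (hN : NP P e ≤ K) (ι : A ≃* P) :
    aE (ι.trans (Subgroup.subgroupOfEquivOfLe hK).symm) (NP (P.subgroupOf K) (resA K e)) =
      aE ι (NP P e) := by
  have hC := he.centralizer_le_NP.trans hN
  ext g
  rw [mem_aE NP_le_normalizer, mem_aE NP_le_normalizer]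
  exact ⟨fun ⟨t, ht, h⟩ => ⟨t, (mem_NP_res he hK hC).1 ht, fun u => congrArg Subtype.val (h u)⟩,
    fun ⟨t, ht, h⟩ => ⟨⟨t, hN ht⟩, (mem_NP_res he hK hC).2 ht, fun u => Subtype.ext (h u)⟩⟩

end Cfsg.Agent.BMod
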